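import Mathlib
import Cfsg.Agent.H699.IBrLift

/-!
# Brauer characters of `𝔽₂`-representations at elements of order 19 without fixed vectors (helper388)
-/

set_option autoImplicit false

namespace Cfsg.Agent.H388.R27

open Cfsg IsLocalRing Module Polynomial Cfsg.Agent.H657

attribute [local instance] Above.isAlgClosed

variable {V : ValuationSubring ℂ}

/-- the roots of a polynomial over the prime field are permuted by the Frobenius map -/
theorem roots_sq {k : Type*} [Field k] [IsAlgClosed k] [CharP k 2] (f : (ZMod 2)[X]) [Algebra (ZMod 2) k] :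
    (f.map (algebraMap (ZMod 2) k)).roots.map (fun r => r ^ 2) =
      (f.map (algebraMap (ZMod 2) k)).roots := by
  classical
  have h0 : Fact (Nat.Prime 2) := ⟨Nat.prime_two⟩
  have : ExpChar k 2 := ExpChar.prime Nat.prime_two
  have : PerfectRing k 2 := inferInstance
  set g := f.map (algebraMap (ZMod 2) k) with hg
  have h1 : expand k 2 g = g ^ 2 := by
    rw [hg, ← map_expand, ZMod.expand_card, Polynomial.map_pow]
  have h2 := roots_expand_map_frobenius (R := k) (p := 2) (f := g)
  rw [h1, roots_pow, Multiset.map_nsmul] at h2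
  have h3 : ∀ r, frobenius k 2 r = r ^ 2 := fun r => rfl
  have h4 : g.roots.map (frobenius k 2) = g.roots := by
    ext a
    have h5 := congrArg (Multiset.count a) h2
    rw [Multiset.count_nsmul, Multiset.count_nsmul] at h5
    omega
  exact h4

theorem sum_pow_two {ζ : ℂ} (h1 : ζ ^ 19 = 1) (h2 : ζ ≠ 1) : ∑ j ∈ Finset.range 18, ζ ^ (2 ^ j) = -1 := by
  have h3 : ∑ i ∈ Finset.range 19, ζ ^ i = 0 := by
    have h4 := mul_geom_sum ζ 19
    rw [h1, sub_self] at h4
    exact (mul_eq_zero.1 h4).resolve_left (sub_ne_zero.2 h2)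
  have h5 : ∀ n : ℕ, ζ ^ n = ζ ^ (n % 19) := by
    intro n
    conv_lhs => rw [← Nat.div_add_mod n 19, pow_add, pow_mul, h1, one_pow, one_mul]
  rw [Finset.sum_congr rfl fun j _ => h5 (2 ^ j)]
  simp only [Finset.sum_range_succ, Finset.sum_range_zero] at h3 ⊢
  norm_num at h3 ⊢
  linear_combination h3

theorem lift_sq [CharP (ResidueField V) 2] {r : ResidueField V} (hr : r ^ 19 = 1) :
    lift 2 (r ^ 2) = (lift 2 r) ^ 2 := by
  have h0 : Fact (Nat.Prime 2) := ⟨Nat.prime_two⟩
  obtain ⟨z, ⟨m, hm, hz⟩, rfl, h3⟩ := lift_spec (p := 2) (r := r) ⟨19, by norm_num, hr⟩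
  rw [h3, ← map_pow]
  have h4 : IsRU 2 ((z ^ 2 : V) : ℂ) := ⟨m, hm, by push_cast; rw [← pow_mul, mul_comm, pow_mul, hz, one_pow]⟩
  rw [lift_residue h4]
  push_cast
  rfl

theorem lift_pow [CharP (ResidueField V) 2] {r : ResidueField V} (hr : r ^ 19 = 1) :
    (lift 2 r) ^ 19 = 1 := by
  have h0 : Fact (Nat.Prime 2) := ⟨Nat.prime_two⟩
  obtain ⟨z, ⟨m, hm, hz⟩, h2, h3⟩ := lift_spec (p := 2) (r := r) ⟨19, by norm_num, hr⟩
  rw [h3]
  have h4 : IsRU 2 ((z ^ 19 : V) : ℂ) := ⟨m, hm, by push_cast; rw [← pow_mul, mul_comm, pow_mul, hz, one_pow]⟩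
  have h5 : z ^ 19 = 1 := ru_injective (p := 2) h4 ⟨1, by norm_num, by simp⟩ (by rw [map_pow, h2, hr, map_one])
  have h6 := congrArg Subtype.val h5
  simpa using h6

theorem lift_ne_one [CharP (ResidueField V) 2] {r : ResidueField V} (hr : r ^ 19 = 1) (h1 : r ≠ 1) :
    lift 2 r ≠ 1 := by
  have h0 : Fact (Nat.Prime 2) := ⟨Nat.prime_two⟩
  obtain ⟨z, ⟨m, hm, hz⟩, h2, h3⟩ := lift_spec (p := 2) (r := r) ⟨19, by norm_num, hr⟩
  rw [h3]
  intro h4
  apply h1
  have : z = 1 := Subtype.ext (by simpa using h4)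
  rw [← h2, this, map_one]

theorem sum_lift [CharP (ResidueField V) 2] {s : Multiset (ResidueField V)} (h1 : ∀ r ∈ s, r ^ 19 = 1)
    (h2 : (1 : ResidueField V) ∉ s) (h3 : s.map (fun r => r ^ 2) = s) :
    18 * (s.map (lift 2)).sum = -(Multiset.card s : ℂ) := by
  have h4 : ∀ j : ℕ, (s.map (lift 2)).sum = (s.map fun r => (lift 2 r) ^ 2 ^ j).sum := by
    intro j
    induction j with
    | zero => simp
    | succ j ih =>
      rw [ih]
      conv_lhs => rw [← h3]
      rw [Multiset.map_map]
      congr 1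
      refine Multiset.map_congr rfl fun r hr => ?_
      rw [Function.comp_apply, lift_sq (h1 r hr), ← pow_mul, pow_succ, mul_comm]
  have h5 : ∑ j ∈ Finset.range 18, (s.map fun r => (lift 2 r) ^ 2 ^ j).sum = 18 * (s.map (lift 2)).sum := by
    rw [Finset.sum_congr rfl fun j _ => (h4 j).symm, Finset.sum_const, Finset.card_range, nsmul_eq_mul]
    norm_num
  rw [← h5]
  have h6 : ∑ j ∈ Finset.range 18, (s.map fun r => (lift 2 r) ^ 2 ^ j).sum =
      (s.map fun r => ∑ j ∈ Finset.range 18, (lift 2 r) ^ 2 ^ j).sum :=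
    Multiset.sum_map_sum_map (Finset.range 18).val s
  rw [h6, Multiset.map_congr (g := fun _ => (-1 : ℂ)) rfl fun r hr => sum_pow_two (lift_pow (h1 r hr))
    (lift_ne_one (h1 r hr) (by rintro rfl; exact h2 hr)), Multiset.map_const', Multiset.sum_replicate, nsmul_eq_mul]
  ring

theorem root_pow {G : Type*} [Group G] {k : Type*} [Field k] {W : Type*} [AddCommGroup W] [Module k W]
    [FiniteDimensional k W] (σ : Representation k G W) {g : G} {n : ℕ} (hg : g ^ n = 1) {r : k}
    (hr : r ∈ (LinearMap.charpoly (σ g)).roots) : r ^ n = 1 := by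
  rw [mem_roots (LinearMap.charpoly_monic _).ne_zero, ← Module.End.hasEigenvalue_iff_isRoot_charpoly] at hr
  obtain ⟨v, hv⟩ := hr.exists_hasEigenvector
  have h2 : ∀ n : ℕ, ((σ g) ^ n) v = r ^ n • v := by
    intro n
    induction n with
    | zero => simp
    | succ n ih =>
      rw [pow_succ, Module.End.mul_apply, hv.apply_eq_smul, map_smul, ih, smul_smul, pow_succ, mul_comm]
  have h3 := h2 n
  rw [← map_pow, hg, map_one, Module.End.one_apply] at h3
  by_contra hne
  have h4 : (r ^ n - 1) • v = 0 := by rw [sub_smul, ← h3, one_smul, sub_self]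
  rcases smul_eq_zero.1 h4 with h5 | h5
  · exact hne (sub_eq_zero.1 h5)
  · exact hv.2 h5

section baseChange

variable {G : Type*} [Group G] {V₀ : Type*} [AddCommGroup V₀] [Module (ZMod 2) V₀]

open scoped TensorProduct

/-- extension of scalars of a representation over the prime field -/
noncomputable def bch (k : Type*) [Field k] [Algebra (ZMod 2) k] (ρ : Representation (ZMod 2) G V₀) :
    Representation k G (k ⊗[ZMod 2] V₀) where
  toFun g := (ρ g).baseChange k
  map_one' := by
    rw [map_one]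
    exact LinearMap.baseChange_id
  map_mul' a b := by
    rw [map_mul]
    exact LinearMap.baseChange_comp _ _

theorem bch_apply (k : Type*) [Field k] [Algebra (ZMod 2) k] (ρ : Representation (ZMod 2) G V₀) (g : G) :
    bch k ρ g = (ρ g).baseChange k := rfl

variable [Finite V₀]

/-- **The Brauer character at a fixed-point-free element of order 19.** -/
theorem bc_nineteen [CharP (ResidueField V) 2] [Algebra (ZMod 2) (ResidueField V)]
    (ρ : Representation (ZMod 2) G V₀) {y : G}
    (hy : y ^ 19 = 1) (hfp : ∀ v, ρ y v = v → v = 0) :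
    18 * bc 2 (bch (ResidueField V) ρ) y = -(finrank (ZMod 2) V₀ : ℂ) := by
  have : Module.Finite (ZMod 2) V₀ := Module.Finite.of_finite
  have h0 : Fact (Nat.Prime 2) := ⟨Nat.prime_two⟩
  set f := LinearMap.charpoly (ρ y) with hf
  have h1 : LinearMap.charpoly (bch (ResidueField V) ρ y) = f.map (algebraMap (ZMod 2) (ResidueField V)) := by
    rw [bch_apply, LinearMap.charpoly_baseChange]
  have hmon : (f.map (algebraMap (ZMod 2) (ResidueField V))).Monic := (LinearMap.charpoly_monic _).map _
  unfold bc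
  rw [h1, sum_lift]
  · congr 2
    rw [IsAlgClosed.card_roots_eq_natDegree]
    rw [Polynomial.natDegree_map, hf, LinearMap.charpoly_natDegree]
  · intro r hr
    rw [← h1] at hr
    exact root_pow _ hy hr
  · intro hr
    rw [mem_roots hmon.ne_zero, IsRoot, eval_one_map, map_eq_zero] at hr
    have h2 : f.IsRoot 1 := hr
    rw [hf, ← Module.End.hasEigenvalue_iff_isRoot_charpoly] at h2
    obtain ⟨v, hv⟩ := h2.exists_hasEigenvector
    apply hv.2
    apply hfp
    rw [hv.apply_eq_smul, one_smul]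
  · exact roots_sq f

theorem bc_one' [CharP (ResidueField V) 2] [Algebra (ZMod 2) (ResidueField V)]
    (ρ : Representation (ZMod 2) G V₀) :
    bc 2 (bch (ResidueField V) ρ) 1 = (finrank (ZMod 2) V₀ : ℂ) := by
  have : Module.Finite (ZMod 2) V₀ := Module.Finite.of_finite
  have h0 : Fact (Nat.Prime 2) := ⟨Nat.prime_two⟩
  rw [Cfsg.Agent.H699.IBrLift.bc_one, Module.finrank_baseChange]

end baseChange

end Cfsg.Agent.H388.R27
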