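import Mathlib
import Cfsg.Agent.H388.R27.Chi
import Cfsg.Agent.H388.R27.BcFrob
import Cfsg.Agent.H699.IBrGen

/-!
# Brauer characters of `²G₂(27)` without vectors fixed by elements of order 19 vanish at the elements of order 3
centralized by an involution (helper388)
-/

set_option autoImplicit false
set_option linter.unusedSectionVars false

namespace Cfsg.Agent.H388.R27

open Cfsg Finset IsLocalRing Module Cfsg.Agent.H657
open Cfsg.Agent.LieRecognition
open Cfsg.Agent.Characters.Core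
open Cfsg.Agent.Blocks.CyclicGroup
open scoped ComplexConjugate

attribute [local instance] Above.isAlgClosed

universe v

section group

variable {G : Type v} [Group G] [Finite G] {z : G}

/-- the subgroup of order 57 of the normalizer -/
def FF (z : G) (hz : orderOf z = 19) : Subgroup G where
  carrier := {g | ∃ j : ZMod 19, j ^ 3 = 1 ∧ g * z * g⁻¹ = u z j}
  one_mem' := ⟨1, by decide, by rw [u_one hz]; group⟩
  mul_mem' := by
    rintro a b ⟨i, hi, ha⟩ ⟨j, hj, hb⟩
    refine ⟨i * j, by rw [mul_pow, hi, hj, one_mul], ?_⟩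
    have h1 : a * b * z * (a * b)⁻¹ = a * (b * z * b⁻¹) * a⁻¹ := by group
    rw [h1, hb, u_mul hz, ← ha, u_eq, conj_pow]
  inv_mem' := by
    rintro a ⟨i, hi, ha⟩
    have hi0 : i ≠ 0 := by rintro rfl; exact absurd hi (by decide)
    refine ⟨i⁻¹, by rw [inv_pow, hi, inv_one], ?_⟩
    have h1 : a * u z i⁻¹ * a⁻¹ = z := by
      rw [u_eq, ← conj_pow, ha]
      have h2 := u_mul hz i i⁻¹
      rw [mul_inv_cancel₀ hi0, u_one hz] at h2
      exact h2.symm
    rw [inv_inv]
    calc a⁻¹ * z * a = a⁻¹ * (a * u z i⁻¹ * a⁻¹) * a := by rw [h1]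
      _ = u z i⁻¹ := by group

theorem conj_u {hz : orderOf z = 19} {g : G} {j : ZMod 19} (hg : g * z * g⁻¹ = u z j) (m : ZMod 19) :
    g * u z m * g⁻¹ = u z (j * m) := by
  rw [u_eq, ← conj_pow, hg, ← u_mul hz]

theorem z_mem_FF (hz : orderOf z = 19) : z ∈ FF z hz :=
  ⟨1, by decide, by rw [u_one hz]; group⟩

theorem odd_FF (hz : orderOf z = 19) (hc : Subgroup.centralizer {z} = Subgroup.zpowers z) :
    ¬ 2 ∣ Nat.card (FF z hz) := by
  intro hdvd
  have h0 : Fact (Nat.Prime 2) := ⟨Nat.prime_two⟩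
  obtain ⟨⟨a, ha⟩, hao⟩ := exists_prime_orderOf_dvd_card' 2 hdvd
  have ho : orderOf a = 2 := by rw [← hao]; exact (Subgroup.orderOf_mk a ha).symm
  obtain ⟨j, hj, hj2⟩ := ha
  have ha2 : a * a = 1 := by rw [← pow_two, ← ho, pow_orderOf_eq_one]
  have h1 : u z (j * j) = u z (1 : ZMod 19) := by
    rw [← conj_u (hz := hz) hj2 j, ← hj2, u_one hz]
    have : a * (a * z * a⁻¹) * a⁻¹ = (a * a) * z * (a * a)⁻¹ := by group
    rw [this, ha2]
    group
  have h2 := u_injective hz h1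
  have h3 : j = 1 := by
    have : j = j ^ 3 := by rw [pow_succ, pow_two, h2, one_mul]
    rw [this, hj]
  rw [h3, u_one hz] at hj2
  have h4 : a ∈ Subgroup.centralizer {z} := by
    rw [Subgroup.mem_centralizer_singleton_iff]
    exact mul_inv_eq_iff_eq_mul.1 hj2
  rw [hc] at h4
  have h5 := Subgroup.orderOf_dvd_natCard _ h4
  rw [Nat.card_zpowers, hz, ho] at h5
  revert h5
  norm_num

theorem isConj_mul (hz : orderOf z = 19) (hc : Subgroup.centralizer {z} = Subgroup.zpowers z) {t : G}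
    (ht : t ∈ FF z hz) (ht' : t ∉ Subgroup.zpowers z) (m : ZMod 19) : ∃ x : G, x * t * x⁻¹ = u z m * t := by
  obtain ⟨j, hj, hj2⟩ := ht
  have hj1 : j ≠ 1 := by
    rintro rfl
    rw [u_one hz] at hj2
    apply ht'
    rw [← hc, Subgroup.mem_centralizer_singleton_iff]
    exact mul_inv_eq_iff_eq_mul.1 hj2
  have hj1' : 1 - j ≠ 0 := sub_ne_zero.2 (Ne.symm hj1)
  refine ⟨u z ((1 - j)⁻¹ * m), ?_⟩
  set c := (1 - j)⁻¹ * m with hcd
  have h1 : (u z c)⁻¹ = u z (-c) := by
    rw [inv_eq_iff_mul_eq_one, ← u_add hz, add_neg_cancel, u_zero]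
  have h2 := conj_u (hz := hz) hj2 (-c)
  have h3 : u z c * t * (u z c)⁻¹ = u z c * (t * u z (-c) * t⁻¹) * t := by
    rw [h1]; group
  rw [h3, h2, ← u_add hz]
  congr 2
  have h4 : c + j * -c = (1 - j) * c := by ring
  rw [h4, hcd, mul_inv_cancel_left₀ hj1']

/-- A character of a group of order prime to 2 extends... vanishing off the kernel of the Frobenius group. -/
theorem char_zero {F : Type*} [Group F] [Finite F] {θ : F → ℂ} (hθ : IsCharacter F θ) {z' t : F}
    (hz : orderOf z' = 19) (hsum : ∑ m : ZMod 19, θ (u z' m) = 0)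
    (hconj : ∀ m : ZMod 19, θ (u z' m * t) = θ t) : θ t = 0 := by
  obtain ⟨k, ρ, rfl⟩ := hθ
  set E : (Fin k → ℂ) →ₗ[ℂ] (Fin k → ℂ) := (19 : ℂ)⁻¹ • ∑ m : ZMod 19, ρ (u z' m) with hE
  have hidem : IsIdempotentElem E := by
    rw [IsIdempotentElem, hE, smul_mul_smul_comm, Finset.sum_mul_sum]
    have h1 : ∀ i : ZMod 19, ∑ j : ZMod 19, ρ (u z' i) * ρ (u z' j) = ∑ j : ZMod 19, ρ (u z' j) := by
      intro i
      rw [← Equiv.sum_comp (Equiv.addLeft i) fun j => ρ (u z' j)]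
      refine Finset.sum_congr rfl fun j _ => ?_
      rw [← map_mul, ← u_add hz]
      rfl
    rw [Finset.sum_congr rfl fun i _ => h1 i, Finset.sum_const, Finset.card_univ, ZMod.card, ← Nat.cast_smul_eq_nsmul ℂ,
      smul_smul]
    congr 1
    norm_num
  have htr : LinearMap.trace ℂ (Fin k → ℂ) E = 0 := by
    rw [hE, map_smul, map_sum]
    have : ∑ m : ZMod 19, LinearMap.trace ℂ (Fin k → ℂ) (ρ (u z' m)) = 0 := hsum
    rw [this, smul_zero]
  have hE0 := LinearMap.IsIdempotentElem.eq_zero_of_trace_eq_zero hidem htr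
  have h2 : ∑ m : ZMod 19, ρ (u z' m) = 0 := by
    rw [hE, smul_eq_zero] at hE0
    exact hE0.resolve_left (by norm_num)
  have h3 : ∑ m : ZMod 19, ρ.character (u z' m * t) = 0 := by
    have h4 : LinearMap.trace ℂ (Fin k → ℂ) ((∑ m : ZMod 19, ρ (u z' m)) * ρ t) = 0 := by
      rw [h2, zero_mul, map_zero]
    rw [Finset.sum_mul, map_sum] at h4
    rw [← h4]
    refine Finset.sum_congr rfl fun m _ => ?_
    rw [← map_mul]
    rfl
  rw [Finset.sum_congr rfl fun m _ => hconj m, Finset.sum_const, Finset.card_univ, ZMod.card, nsmul_eq_mul] at h3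
  exact (mul_eq_zero.1 h3).resolve_left (by norm_num)

end group

section brauer

variable {V : ValuationSubring ℂ} {G : Type v} [Group G] [Finite G] {M : Ideal AlgInt} {z : G}

theorem bc_FF (hM : IsPModular 2 M) (hV : Above M V) {W : Type*} [AddCommGroup W] [Module (ResidueField V) W]
    [FiniteDimensional (ResidueField V) W] (σ : Representation (ResidueField V) G W)
    (hz : orderOf z = 19) (hc : Subgroup.centralizer {z} = Subgroup.zpowers z)
    (hsum : ∑ m : ZMod 19, bc 2 σ (u z m) = 0) {t : G} (ht : t ∈ FF z hz) (ht' : t ∉ Subgroup.zpowers z) :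
    bc 2 σ t = 0 := by
  have h1 := Cfsg.Agent.H699.IBrLift.isCharacter_bc hM hV (odd_FF hz hc) (σ.comp (FF z hz).subtype)
  have hz' : orderOf (⟨z, z_mem_FF hz⟩ : FF z hz) = 19 := by rw [Subgroup.orderOf_mk]; exact hz
  have hu : ∀ m : ZMod 19, ((u (⟨z, z_mem_FF hz⟩ : FF z hz) m : FF z hz) : G) = u z m := by
    intro m
    rw [u_eq, u_eq]
    rfl
  refine char_zero h1 hz' (t := ⟨t, ht⟩) ?_ ?_
  · rw [← hsum]
    refine Finset.sum_congr rfl fun m _ => ?_
    rw [← hu m]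
    rfl
  · intro m
    obtain ⟨x, hx⟩ := isConj_mul hz hc ht ht' m
    have h2 : bc 2 σ (u z m * t) = bc 2 σ t := by rw [← hx, bc_conj]
    rw [← hu m] at h2
    exact h2

end brauer

section main

variable {K : Type*} [Field K] [Fintype K] {G : Type v} [Group G] [Fintype G]
  {U : K → K → K → G} {h : Kˣ → G} {n : G} {D : ReeAbs.Data 1 U h n} {z w s : G}

/-- an element of order 3 of the normalizer of `z` is conjugate to some `U 0 u v`, `u ≠ 0` -/
theorem Hyp.exists_t (H : Hyp D z w s) : ∃ t ∈ FF z H.hz, t ∉ Subgroup.zpowers z ∧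
    ∃ c : G, ∃ u v : K, u ≠ 0 ∧ c⁻¹ * t * c = U 0 u v := by
  have hK : Fintype.card K = 3 ^ (2 * 1 + 1) := by rw [H.hK]; norm_num
  have hz1 : z ≠ 1 := by
    rintro rfl
    have := H.hz
    rw [orderOf_one] at this
    norm_num at this
  have hc : Subgroup.centralizer {z} = Subgroup.zpowers z := H.hzc z (Subgroup.mem_zpowers z) hz1
  let v12 : (ZMod 19)ˣ := ⟨12, 8, by decide, by decide⟩
  have h12 : v12 ∈ fuse z H.hz := mem_fuse_of_pow H.hz H.card_fuse (by decide)
  obtain ⟨g, hg⟩ := isConj_iff.1 ((mem_fuse H.hz).1 h12)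
  have hg' : g * z * g⁻¹ = u z (12 : ZMod 19) := hg
  have hcg := fun m => conj_u (hz := H.hz) hg' m
  -- powers of `g`
  have hg2 : g ^ 2 * z * (g ^ 2)⁻¹ = u z (11 : ZMod 19) := by
    have h1 : g ^ 2 * z * (g ^ 2)⁻¹ = g * (g * z * g⁻¹) * g⁻¹ := by rw [pow_two]; group
    rw [h1, hg', hcg]
    congr 1
  have hg3 : g ^ 3 * z * (g ^ 3)⁻¹ = u z (18 : ZMod 19) := by
    have h1 : g ^ 3 * z * (g ^ 3)⁻¹ = g * (g ^ 2 * z * (g ^ 2)⁻¹) * g⁻¹ := by rw [pow_succ' g 2]; group
    rw [h1, hg2, hcg]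
    congr 1
  have hg6 : g ^ 6 * z * (g ^ 6)⁻¹ = z := by
    have h1 : g ^ 6 * z * (g ^ 6)⁻¹ = g ^ 3 * (g ^ 3 * z * (g ^ 3)⁻¹) * (g ^ 3)⁻¹ := by
      rw [show 6 = 3 + 3 by norm_num, pow_add]; group
    rw [h1, hg3, conj_u (hz := H.hz) hg3 18]
    have : (18 * 18 : ZMod 19) = 1 := by decide
    rw [this, u_one H.hz]
  have hg6' : g ^ 6 = 1 := by
    have h1 : g ^ 6 ∈ Subgroup.centralizer {z} := by
      rw [Subgroup.mem_centralizer_singleton_iff]
      exact mul_inv_eq_iff_eq_mul.1 hg6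
    rw [hc] at h1
    obtain ⟨m, hm⟩ := exists_u_of_mem H.hz h1
    have h2 : u z (12 * m) = u z m := by
      rw [← hcg m, hm]
      rw [mul_inv_eq_iff_eq_mul, ← pow_succ, ← pow_succ']
    have h3 := u_injective H.hz h2
    have h4 : m = 0 := by
      have h5 : (11 : ZMod 19) * m = 0 := by
        have : (12 : ZMod 19) * m - m = 0 := sub_eq_zero.2 h3
        calc (11 : ZMod 19) * m = 12 * m - m := by ring
          _ = 0 := this
      exact (mul_eq_zero.1 h5).resolve_left (by decide)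
    rw [← hm, h4, u_zero]
  have hne : ∀ {y : G} {j : ZMod 19}, y * z * y⁻¹ = u z j → j ≠ 1 → y ∉ Subgroup.zpowers z := by
    intro y j hy hj hmem
    rw [← hc, Subgroup.mem_centralizer_singleton_iff] at hmem
    apply hj
    have h1 : u z j = u z (1 : ZMod 19) := by
      rw [← hy, u_one H.hz, hmem]
      group
    exact u_injective H.hz h1
  set t := g ^ 2 with ht
  set a := g ^ 3 with ha
  have htz : t ∉ Subgroup.zpowers z := hne hg2 (by decide)
  have haz : a ∉ Subgroup.zpowers z := hne hg3 (by decide)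
  have ht1 : t ≠ 1 := fun h1 => htz (by rw [h1]; exact Subgroup.one_mem _)
  have ha1 : a ≠ 1 := fun h1 => haz (by rw [h1]; exact Subgroup.one_mem _)
  have hta : a * t = t * a := by rw [ht, ha, ← pow_add, ← pow_add]
  have ha2 : a * a = 1 := by rw [ha, ← pow_add]; exact hg6'
  have ht3 : t ^ 3 = 1 := by rw [ht, ← pow_mul]; exact hg6'
  have h3 : Fact (Nat.Prime 3) := ⟨Nat.prime_three⟩
  have hto : orderOf t = 3 := orderOf_eq_prime ht3 ht1
  obtain ⟨c, x₁, x₂, x₃, hx⟩ := Cfsg.Agent.H125.ReeFull.conj_uSub D hK (x := t) (k := 1) (by rw [hto]; norm_num)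
  have hxo : (U x₁ x₂ x₃) ^ 3 = 1 := by
    rw [← hx]
    have : (c⁻¹ * t * c) ^ 3 = c⁻¹ * t ^ 3 * c := by
      have := conj_pow (i := 3) (a := c⁻¹) (b := t)
      rwa [inv_inv] at this
    rw [this, ht3]
    group
  have hx1 : x₁ = 0 := by
    rw [ReeSplit.U_cube D hK, ← D.U_zero] at hxo
    have h1 := (ReeSylowThree.U_injective D hxo).2.2
    rw [neg_eq_zero, mul_eq_zero] at h1
    rcases h1 with h1 | h1
    · exact pow_eq_zero_iff two_ne_zero |>.1 h1
    · exact pow_eq_zero_iff (by positivity) |>.1 h1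
  rw [hx1] at hx
  refine ⟨t, ⟨11, by decide, hg2⟩, htz, c, x₂, x₃, ?_, hx⟩
  rintro rfl
  -- now `x = U 0 0 x₃` commutes with an involution
  have hxne : U 0 0 x₃ ≠ 1 := by
    rw [← hx]
    intro h1
    apply ht1
    have : t = c * (c⁻¹ * t * c) * c⁻¹ := by group
    rw [this, h1]
    group
  have hv : x₃ ≠ 0 := by
    rintro rfl
    exact hxne D.U_zero
  have hcomm : (c⁻¹ * a * c) * U 0 0 x₃ = U 0 0 x₃ * (c⁻¹ * a * c) := by
    rw [← hx]
    calc (c⁻¹ * a * c) * (c⁻¹ * t * c) = c⁻¹ * (a * t) * c := by group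
      _ = (c⁻¹ * t * c) * (c⁻¹ * a * c) := by rw [hta]; group
  have ha2' : (c⁻¹ * a * c) * (c⁻¹ * a * c) = 1 := by
    calc (c⁻¹ * a * c) * (c⁻¹ * a * c) = c⁻¹ * (a * a) * c := by group
      _ = 1 := by rw [ha2]; group
  have ha1' : c⁻¹ * a * c ≠ 1 := by
    intro h1
    apply ha1
    have : a = c * (c⁻¹ * a * c) * c⁻¹ := by group
    rw [this, h1]
    group
  rcases ReeSplit.mem_or_of_commute D hK ⟨0, 0, x₃, rfl⟩ hxne hcomm with h1 | ⟨_, ⟨p, q, r, rfl⟩, h1⟩
  · have h2 := ReeSplit.pow_nine D hK h1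
    apply ha1'
    calc c⁻¹ * a * c = (c⁻¹ * a * c) ^ 9 := by
          rw [show 9 = 2 * 4 + 1 by norm_num, pow_succ, pow_mul, pow_two, ha2', one_pow, one_mul]
      _ = 1 := h2
  · rw [h1, mul_assoc, D.h_U, ← mul_assoc, ← mul_assoc, D.U_mul, D.U_mul] at hcomm
    obtain ⟨-, -, h5, -⟩ := D.inj₁ _ _ _ _ _ _ _ _ hcomm
    have h3' := char3 (K := K) H.hK
    norm_num at h5
    apply hv
    linear_combination h5 + x₃ * h3'

end main

end Cfsg.Agent.H388.R27
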