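import Mathlib
import Cfsg.Agent.H388.R27.ChiMain
import Cfsg.Agent.H388.R27.TZero
import Cfsg.Agent.H388.R27.Pos
import Cfsg.Agent.H642.F2
import Cfsg.Agent.Blocks.ExistsModular

/-!
# Elements of order 19 of `²G₂(27)` have nonzero fixed vectors in every nonzero representation over `𝔽₂` (helper388)
-/

set_option autoImplicit false
set_option linter.unusedSectionVars false

namespace Cfsg.Agent.H388.R27

open Cfsg Finset IsLocalRing Module Cfsg.Agent.H657
open Cfsg.Agent.LieRecognition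
open Cfsg.Agent.Characters.Core
open Cfsg.Agent.Blocks.CyclicGroup
open scoped ComplexConjugate

attribute [local instance] Above.isAlgClosed

universe v

variable {K : Type*} [Field K] [Fintype K] {G : Type v} [Group G] [Fintype G]
  {U : K → K → K → G} {h : Kˣ → G} {n : G} {D : ReeAbs.Data 1 U h n} {z w s : G}

/-- **No fixed-point-free action.** -/
theorem Hyp.exists_fixed (H : Hyp D z w s) {V₀ : Type*} [AddCommGroup V₀] [Module (ZMod 2) V₀] [Finite V₀]
    [Nontrivial V₀] (ρ : Representation (ZMod 2) G V₀) :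
    ∃ y : G, orderOf y = 19 ∧ ∃ v, v ≠ 0 ∧ ρ y v = v := by
  classical
  by_contra hcon
  push Not at hcon
  have hfp : ∀ y : G, orderOf y = 19 → ∀ v, ρ y v = v → v = 0 := by
    intro y hy v hv
    by_contra h0
    exact hcon y hy v h0 hv
  obtain ⟨M, hM⟩ := Cfsg.Agent.Blocks.ExistsModular.exists_isPModular Nat.prime_two
  obtain ⟨V, hV⟩ := exists_above hM
  have h2 : Fact (Nat.Prime 2) := ⟨Nat.prime_two⟩
  have hch : CharP (ResidueField V) 2 := hV.charP hM
  let _ : Algebra (ZMod 2) (ResidueField V) := ZMod.algebra _ 2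
  have hfin : Module.Finite (ZMod 2) V₀ := Module.Finite.of_finite
  obtain ⟨χ, hχ1, hχz, hχu, hχ0, hχs⟩ := H.exists_chi
  set σ := bch (ResidueField V) ρ with hσ
  set d := finrank (ZMod 2) V₀ with hd
  have hdpos : 0 < d := Module.finrank_pos
  set φ : G → ℂ := bc 2 σ with hφ
  have hφc : ∀ g x : G, φ (x * g * x⁻¹) = φ g := fun g x => bc_conj 2 σ g x
  have hφ1 : φ 1 = d := bc_one' ρ
  have hφ19 : ∀ y : G, orderOf y = 19 → 18 * φ y = -(d : ℂ) := by
    intro y hy
    exact bc_nineteen ρ (by rw [← hy]; exact pow_orderOf_eq_one y) (hfp y hy)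
  -- the character is positive on `φ`
  have hvan : ∀ g : G, 2 ∣ orderOf g → (χ : G → ℂ) g = 0 := by
    intro g hg
    apply hχ0
    · rintro rfl
      rw [orderOf_one] at hg
      revert hg; norm_num
    · intro h3
      have h4 := hg.trans (conjSet_orderOf h3).1
      rw [H.card_z] at h4
      revert h4; norm_num
    · intro h3
      have h4 := hg.trans (conjSet_orderOf h3).1
      rw [H.card_u] at h4
      revert h4; norm_num
  obtain ⟨k, hk⟩ := exists_mult hM hV χ hvan (Cfsg.Agent.H642.F2.blockOf_eq_of_vanish hM hvan) σ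
  -- the value at `U 0 u v`, `u ≠ 0`
  have hz1 : z ≠ 1 := by
    rintro rfl
    have := H.hz
    rw [orderOf_one] at this
    norm_num at this
  have hc : Subgroup.centralizer {z} = Subgroup.zpowers z := H.hzc z (Subgroup.mem_zpowers z) hz1
  have hum : ∀ m : ZMod 19, m ≠ 0 → orderOf (u z m) = 19 := by
    intro m hm
    have h3 := Subgroup.orderOf_dvd_natCard _ (u_mem z m)
    rw [H.card_z] at h3
    refine ((Nat.dvd_prime (by norm_num)).1 h3).resolve_left fun h4 => ?_
    exact hm ((u_eq_one_iff H.hz).1 (orderOf_eq_one_iff.1 h4))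
  have hsum : ∑ m : ZMod 19, φ (u z m) = 0 := by
    rw [← Finset.add_sum_erase univ _ (mem_univ (0 : ZMod 19)), u_zero, hφ1]
    have h3 : ∀ m ∈ univ.erase (0 : ZMod 19), φ (u z m) = -(d : ℂ) / 18 := by
      intro m hm
      have h4 := hφ19 _ (hum m (Finset.ne_of_mem_erase hm))
      rw [eq_div_iff (by norm_num)]
      linear_combination h4
    rw [Finset.sum_congr rfl h3, Finset.sum_const, Finset.card_erase_of_mem (mem_univ _), Finset.card_univ, ZMod.card,
      nsmul_eq_mul]
    push_cast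
    ring
  obtain ⟨t, htF, htz, c, u₀, v₀, hu₀, ht⟩ := H.exists_t
  have hT1 : φ (U 0 u₀ 0) = 0 := by
    rw [← class_v D φ hφc hu₀ v₀, ← ht]
    have h3 := hφc t c⁻¹
    rw [inv_inv] at h3
    rw [h3]
    exact bc_FF hM hV σ H.hz hc hsum htF htz
  have hT2 : φ (U 0 (-u₀) 0) = 0 := by
    have h3 : (U 0 u₀ v₀)⁻¹ = U 0 (-u₀) (-v₀) := by
      rw [inv_eq_iff_mul_eq_one, D.U_mul, ← D.U_zero]
      congr 1 <;> simp
    rw [← class_v D φ hφc (neg_ne_zero.2 hu₀) (-v₀), ← h3, ← ht]
    have h4 : (c⁻¹ * t * c)⁻¹ = c⁻¹ * t⁻¹ * c⁻¹⁻¹ := by group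
    rw [h4, hφc]
    exact bc_FF hM hV σ H.hz hc hsum ((FF z H.hz).inv_mem htF) (fun h5 => htz ((Subgroup.inv_mem_iff _).1 h5))
  have hT : ∀ u, u ≠ 0 → ∀ v, φ (U 0 u v) = 0 := by
    intro u hu v
    rw [class_v D φ hφc hu v]
    have h3 : φ (U 0 1 0) = 0 ∧ φ (U 0 (-1) 0) = 0 := by
      rcases class_u D H.hK φ hφc hu₀ with ⟨h3, h4⟩ | ⟨h3, h4⟩
      · exact ⟨by rw [← h3, hT1], by rw [← h4, hT2]⟩
      · exact ⟨by rw [← h4, hT2], by rw [← h3, hT1]⟩
    rcases class_u D H.hK φ hφc hu with ⟨h4, -⟩ | ⟨h4, -⟩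
    · rw [h4, h3.1]
    · rw [h4, h3.2]
  -- the sums
  have hcardU : ¬ 2 ∣ Nat.card (ReeSylowThree.uSub D) := by rw [H.card_u]; norm_num
  have hcardK : ¬ 2 ∣ Nat.card (Multiplicative K) := by
    rw [Nat.card_congr (Multiplicative.toAdd (α := K)), Nat.card_eq_fintype_card, H.hK]; norm_num
  obtain ⟨aZ, haZ⟩ := exists_z D H.hK (θ := φ)
    (Cfsg.Agent.H699.IBrLift.isCharacter_bc hM hV hcardK (σ.comp (zHom D)))
  obtain ⟨aU, haU⟩ := exists_u D H.hK (θ := φ)
    (Cfsg.Agent.H699.IBrLift.isCharacter_bc hM hV hcardU (σ.comp (ReeSylowThree.uSub D).subtype))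
  set Q : G → ℂ := fun g => φ g * conj ((χ : G → ℂ) g) with hQ
  have hQc : ∀ g x : G, Q (x * g * x⁻¹) = Q g := fun g x => by
    simp only [hQ]
    rw [hφc, isIrr_isClassFunction χ.2]
  have hQ1 : Q 1 = 26936 * d := by
    simp only [hQ]
    rw [hφ1, hχ1]
    have : conj (26936 : ℂ) = 26936 := Complex.conj_ofNat 26936
    rw [this]
    ring
  have e1 : ∑ g : G, Q g = Q 1 + ∑ g : G with g ∈ conjSet (Subgroup.zpowers z), Q g +
      ∑ g : G with g ∈ conjSet (ReeSylowThree.uSub D), Q g := by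
    have h3 : Q 1 = ∑ g : G, if g = 1 then Q g else 0 := by
      rw [Finset.sum_ite_eq' univ (1 : G), if_pos (mem_univ _)]
    rw [h3, Finset.sum_filter, Finset.sum_filter, ← Finset.sum_add_distrib, ← Finset.sum_add_distrib]
    refine Finset.sum_congr rfl fun g _ => ?_
    have hdis : Disjoint (conjSet (Subgroup.zpowers z)) (conjSet (ReeSylowThree.uSub D)) := by
      apply disjoint_conjSet
      rw [H.card_z, H.card_u]
      norm_num
    by_cases h4 : g = 1
    · have b1 : g ∉ conjSet (Subgroup.zpowers z) := fun h => h.1 h4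
      have b2 : g ∉ conjSet (ReeSylowThree.uSub D) := fun h => h.1 h4
      rw [if_pos h4, if_neg b1, if_neg b2, add_zero, add_zero]
    · rw [if_neg h4]
      by_cases b1 : g ∈ conjSet (Subgroup.zpowers z)
      · have b2 : g ∉ conjSet (ReeSylowThree.uSub D) := fun h => Set.disjoint_left.1 hdis b1 h
        rw [if_pos b1, if_neg b2, zero_add, add_zero]
      · rw [if_neg b1]
        by_cases b2 : g ∈ conjSet (ReeSylowThree.uSub D)
        · rw [if_pos b2, zero_add, zero_add]
        · rw [if_neg b2, zero_add, zero_add]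
          simp only [hQ]
          rw [hχ0 g h4 b1 b2, map_zero, mul_zero]
  have e2 : ∑ g : G with g ∈ conjSet (Subgroup.zpowers z), Q g = -(88363548 / 3) * d := by
    have h3 := H.sum_z Q hQc
    have h4 : ∑ g : G with g ∈ Subgroup.zpowers z ∧ g ≠ 1, Q g = -(d : ℂ) / 3 := by
      have h5 : ∀ g ∈ univ.filter (fun g : G => g ∈ Subgroup.zpowers z ∧ g ≠ 1), Q g =
          -(d : ℂ) / 18 * conj ((χ : G → ℂ) g) := by
        intro g hg
        obtain ⟨h6, h7⟩ := (Finset.mem_filter.1 hg).2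
        obtain ⟨m, rfl⟩ := exists_u_of_mem H.hz h6
        have h8 := hφ19 _ (hum m (by rintro rfl; exact h7 u_zero))
        simp only [hQ]
        congr 1
        rw [eq_div_iff (by norm_num)]
        linear_combination h8
      rw [Finset.sum_congr rfl h5, ← Finset.mul_sum, ← map_sum, hχs]
      have : conj (6 : ℂ) = 6 := Complex.conj_ofNat 6
      rw [this]
      ring
    rw [h4, nsmul_eq_mul, nsmul_eq_mul] at h3
    norm_num [NN] at h3
    linear_combination (1 / 114 : ℂ) * h3
  have hφU0 : φ (U 0 0 0) = d := by rw [D.U_zero, hφ1]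
  have c37 : conj (-37 : ℂ) = -37 := by rw [map_neg]; congr 1; exact Complex.conj_ofNat 37
  have e3 : ∑ g : G with g ∈ ReeSylowThree.uSub D ∧ g ≠ 1, Q g =
      -37 * (27 * aZ - d) - (19683 * aU - 27 * aZ) := by
    rw [sum_uSub D Q]
    have f1 : ∑ v : K with v ≠ 0, Q (U 0 0 v) = -37 * (27 * aZ - d) := by
      have f2 : ∀ v ∈ univ.filter (fun v : K => v ≠ 0), Q (U 0 0 v) = -37 * φ (U 0 0 v) := by
        intro v hv
        simp only [hQ]
        rw [hχz v (Finset.mem_filter.1 hv).2, c37]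
        ring
      have f3 := sum_split (fun v : K => φ (U 0 0 v))
      rw [haZ, hφU0] at f3
      rw [Finset.sum_congr rfl f2, ← Finset.mul_sum]
      linear_combination (37 : ℂ) * f3
    have f4 : ∑ u : K with u ≠ 0, ∑ v : K, Q (U 0 u v) = 0 := by
      refine Finset.sum_eq_zero fun u hu => Finset.sum_eq_zero fun v _ => ?_
      simp only [hQ]
      rw [hT u (Finset.mem_filter.1 hu).2 v, zero_mul]
    have f5 : ∑ t : K with t ≠ 0, ∑ u : K, ∑ v : K, Q (U t u v) = -(19683 * aU - 27 * aZ) := by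
      have f6 : ∀ t ∈ univ.filter (fun t : K => t ≠ 0), ∑ u : K, ∑ v : K, Q (U t u v) =
          -∑ u : K, ∑ v : K, φ (U t u v) := by
        intro t ht
        rw [← Finset.sum_neg_distrib]
        refine Finset.sum_congr rfl fun u _ => ?_
        rw [← Finset.sum_neg_distrib]
        refine Finset.sum_congr rfl fun v _ => ?_
        simp only [hQ]
        rw [hχu t (Finset.mem_filter.1 ht).2 u v, map_neg, map_one]
        ring
      have f7 := sum_split (fun t : K => ∑ u : K, ∑ v : K, φ (U t u v))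
      have f8 : ∑ u : K, ∑ v : K, φ (U 0 u v) = 27 * aZ := by
        rw [sum_split, haZ]
        have : ∑ u : K with u ≠ 0, ∑ v : K, φ (U 0 u v) = 0 :=
          Finset.sum_eq_zero fun u hu => Finset.sum_eq_zero fun v _ => hT u (Finset.mem_filter.1 hu).2 v
        rw [this, add_zero]
      rw [haU, f8] at f7
      rw [Finset.sum_congr rfl f6, Finset.sum_neg_distrib]
      linear_combination f7
    rw [f1, f4, f5]
    ring
  have e4 : ∑ g : G with g ∈ conjSet (ReeSylowThree.uSub D), Q g =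
      19684 * (-37 * (27 * aZ - d) - (19683 * aU - 27 * aZ)) := by
    have h3 := H.sum_u Q hQc
    rw [e3, nsmul_eq_mul, nsmul_eq_mul] at h3
    norm_num [NN] at h3
    linear_combination (1 / 511758 : ℂ) * h3
  have e5 : (k : ℂ) * Nat.card G = 26936 * d + -(88363548 / 3) * d +
      19684 * (-37 * (27 * aZ - d) - (19683 * aU - 27 * aZ)) := by
    rw [← hk, ← hQ1, ← e2, ← e4, ← e1]
  have e6 : (k : ℝ) * Nat.card G = 26936 * d + -(88363548 / 3) * d +
      19684 * (-37 * (27 * aZ - d) - (19683 * aU - 27 * aZ)) := by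
    rw [← Complex.ofReal_inj]
    push_cast
    exact e5
  have h3 : (0 : ℝ) ≤ (k : ℝ) * Nat.card G := by positivity
  have h4 : (0 : ℝ) ≤ aZ := by positivity
  have h5 : (0 : ℝ) ≤ aU := by positivity
  have h6 : (0 : ℝ) < d := by exact_mod_cast hdpos
  linarith

end Cfsg.Agent.H388.R27
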