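import Mathlib
import Cfsg.Agent.H388.R27.Mod
import Cfsg.Agent.LieRecognition.ReeFinal
import Cfsg.Agent.LieRecognition.ReeTorusTw
import Cfsg.Agent.S1116

/-!
# `²G₂(27)`: elements of order 19 have nonzero fixed vectors in every nonzero representation over `𝔽₂` (helper388)
-/

set_option autoImplicit false
set_option linter.unusedSectionVars false

namespace Cfsg.Agent.H388.R27

open Cfsg Finset
open Cfsg.Agent.LieRecognition

section abs

variable {K : Type*} [Field K] [Fintype K] {G : Type*} [Group G] [Fintype G]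
  {U : K → K → K → G} {h : Kˣ → G} {n : G}

/-- the set of the elements normalizing `⟨w⟩` is bounded by any subgroup containing them -/
theorem card_le_of_mem {w : G} {p : ℕ} (N : Subgroup G) (hN : ∀ y : G, ∀ j ∈ Ico 1 p, y * w = w ^ j * y → y ∈ N) :
    Nat.card {y : G // ∃ j ∈ Ico 1 p, y * w = w ^ j * y} ≤ Nat.card N :=
  Nat.card_le_card_of_injective (fun y => (⟨y.1, by
    obtain ⟨j, hj, hy⟩ := y.2
    exact hN _ j hj hy⟩ : N)) fun a b hab => Subtype.ext (congrArg (fun x : N => (x : G)) hab)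

theorem exists_gen {A : Subgroup G} (hA : IsCyclic A) : ∃ z : G, Subgroup.zpowers z = A := by
  obtain ⟨z, hz⟩ := (Subgroup.isCyclic_iff_exists_zpowers_eq_top A).1 hA
  exact ⟨z, hz⟩

theorem exists_hyp (D : ReeAbs.Data 1 U h n) (hK : Fintype.card K = 27) (hG : commutator G = ⊤)
    (hcyc : ∀ x : G, x ≠ 1 → orderOf x ∣ (3 ^ (2 * 1 + 1)) ^ 2 - 3 ^ (2 * 1 + 1) + 1 →
      IsCyclic (Subgroup.centralizer {x}) ∧
        Nat.card (Subgroup.normalizer (Subgroup.centralizer {x} : Set G)) ∣ 6 * Nat.card (Subgroup.centralizer {x})) :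
    ∃ z w s : G, Hyp D z w s := by
  have hK' : Fintype.card K = 3 ^ (2 * 1 + 1) := by rw [hK]; norm_num
  obtain ⟨A, B, cA, cB, kA, kB, nA, nB, zA, zB, -⟩ := ReeSetup.exists_tori D le_rfl hK' hG hcyc
  norm_num at kA kB nA nB
  obtain ⟨z, rfl⟩ := exists_gen cA
  obtain ⟨w, rfl⟩ := exists_gen cB
  rw [Nat.card_zpowers] at kA kB
  have hcA : Nat.card (ReeSplit.aSub D) = 13 := by rw [ReeSplit.card_aSub D hK']; norm_num
  obtain ⟨s, hs⟩ := exists_gen (ReeSplit.isCyclic_aSub D)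
  have hso : orderOf s = 13 := by rw [← Nat.card_zpowers, hs, hcA]
  refine ⟨z, w, s, hK, ?_, kA, nA, zA, kB, ?_, hso, ?_⟩
  · rw [ReeSylowThree.card_eq D, hK]; norm_num [NN]
  · rw [← nB]
    apply card_le_of_mem
    intro y j hj hy
    have hw1 : w ≠ 1 := by
      rintro rfl
      rw [orderOf_one] at kB
      norm_num at kB
    rw [← inv_inv y]
    refine (Subgroup.normalizer (Subgroup.zpowers w : Set G)).inv_mem ?_
    refine Cfsg.Agent.H125.ReeFull.mem_normalizer_of_conj zB (Subgroup.mem_zpowers w) hw1 ?_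
    have : y⁻¹⁻¹ * w * y⁻¹ = w ^ j := by
      rw [inv_inv, hy]; group
    rw [this]
    exact Subgroup.pow_mem _ (Subgroup.mem_zpowers w) j
  · have hN : Nat.card (ReeSplit.nSub D) = 52 := by rw [ReeSplit.card_nSub D, hK]
    rw [← hN]
    apply card_le_of_mem
    intro y j hj hy
    have hs1 : s ≠ 1 := by
      rintro rfl
      rw [orderOf_one] at hso
      norm_num at hso
    have hsA : s ∈ ReeSplit.aSub D := by rw [← hs]; exact Subgroup.mem_zpowers s
    rw [← inv_inv y]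
    refine (ReeSplit.nSub D).inv_mem ?_
    refine ReeSplit.mem_nSub_of_inv_conj_mem D hK' hsA hs1 (ReeSplit.aSub_le D ?_)
    have : y⁻¹⁻¹ * s * y⁻¹ = s ^ j := by
      rw [inv_inv, hy]; group
    rw [this]
    exact Subgroup.pow_mem _ hsA j

end abs

/-- **The fixed point theorem.** -/
theorem ree_exists_fixed {K : Type*} [Field K] [Fintype K] (hK : Fintype.card K = 27)
    {V₀ : Type*} [AddCommGroup V₀] [Module (ZMod 2) V₀] [Finite V₀] [Nontrivial V₀]
    (ρ : Representation (ZMod 2) ↥(Cfsg.Lie.twistedG2 K 3) V₀) :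
    ∃ y : ↥(Cfsg.Lie.twistedG2 K 3), orderOf y = 19 ∧ ∃ v, v ≠ 0 ∧ ρ y v = v := by
  have hK' : Fintype.card K = 3 ^ (2 * 1 + 1) := by rw [hK]; norm_num
  have D := ReeFinal.data (m := 1) hK'
  have : Finite ↥(Cfsg.Lie.twistedG2 K (3 ^ 1)) := ReeSylowThree.finite D
  have := Fintype.ofFinite ↥(Cfsg.Lie.twistedG2 K (3 ^ 1))
  obtain ⟨z, w, s, H⟩ := exists_hyp D hK (Cfsg.Agent.S1116.result hK' le_rfl)
    (fun x hx hx1 => ReeTorusTw.isCyclic_centralizer hK' hx hx1)
  exact H.exists_fixed ρ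

end Cfsg.Agent.H388.R27
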